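import Cfsg.Agent.Solv.MinNormal

set_option autoImplicit false

/-! S4467, piece W1 (helper22): primitive solvable quotients. -/

namespace Cfsg.Agent.H22W

open Subgroup

/-- the case of a core-free maximal subgroup -/
theorem prim {Q : Type*} [Group Q] [Finite Q] (hsol : Group.IsSolvable Q) {M : Subgroup Q} (hM : M ≠ ⊤)
    (hmax : ∀ K : Subgroup Q, M < K → K = ⊤) (hcore : ∀ K : Subgroup Q, K.Normal → K ≤ M → K = ⊥) {p : ℕ}
    (hp : p.Prime) (P : Subgroup Q) (hP : IsPGroup p P) :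
    (∃ q : ℕ, IsPrimePow q ∧ q ∣ M.index ∧
      ((q : ℤ) ≡ -1 [ZMOD p] ∨ (q : ℤ) ≡ 0 [ZMOD p] ∨ (q : ℤ) ≡ 1 [ZMOD p])) ∨ P = ⊥ := by
  haveI : Fact p.Prime := ⟨hp⟩
  have hnt : (⊤ : Subgroup Q) ≠ ⊥ := by
    intro h
    apply hM
    rw [eq_top_iff, h]; exact bot_le
  obtain ⟨N, hN, -, hN1, hmin⟩ := Solv.exists_minimal_normal (⊤ : Subgroup Q) inferInstance hnt
  haveI := hsol
  obtain ⟨hab, -⟩ := Solv.minimal_normal_of_solvable N inferInstance hN1 hmin
  obtain ⟨r, hr, hrN⟩ := Solv.minimal_normal_isPGroup N inferInstance hN1 hmin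
  haveI : Fact r.Prime := ⟨hr⟩
  have hNM : ¬ N ≤ M := fun h => hN1 (hcore N hN h)
  have hsup : N ⊔ M = ⊤ := hmax _ (lt_of_le_of_ne le_sup_right (fun h => hNM (by rw [h]; exact le_sup_left)))
  have hinf := Solv.inf_eq_bot_of_minimal_abelian N M hab hmin hsup hNM
  have h6 := Solv.index_mul_card_inf_eq_card_of_sup_eq_top N M hsup
  rw [inf_comm, hinf, Subgroup.card_bot, mul_one] at h6
  obtain ⟨n, hn⟩ := IsPGroup.iff_card.mp hrN
  have hn0 : n ≠ 0 := by
    rintro rfl
    rw [pow_zero] at hn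
    exact hN1 (Subgroup.card_eq_one.1 hn)
  rw [hn] at h6
  by_cases hrp : r = p
  · left
    refine ⟨r ^ n, hr.isPrimePow.pow hn0, by rw [h6], Or.inr (Or.inl ?_)⟩
    rw [Int.modEq_zero_iff_dvd]
    have : p ∣ r ^ n := by rw [hrp]; exact dvd_pow_self p hn0
    exact_mod_cast this
  -- `C(N) = N`
  have hcc : ∀ a ∈ N, ∀ b ∈ N, a * b = b * a := fun a ha b hb => Solv.comm_of_isMulCommutative hab ha hb
  have hCn : (centralizer (N : Set Q)).Normal := Subgroup.normal_centralizer
  have hCM : centralizer (N : Set Q) ⊓ M = ⊥ := by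
    apply hcore _ _ inf_le_right
    rw [← Subgroup.normalizer_eq_top_iff, eq_top_iff, ← hsup]
    apply sup_le
    · intro x hx
      rw [Subgroup.mem_normalizer_iff]
      intro y
      constructor
      · rintro ⟨h1, h2⟩
        have h3 : x * y * x⁻¹ = y := by
          rw [(mem_centralizer_iff.1 h1 x hx)]; group
        rw [h3]; exact ⟨h1, h2⟩
      · rintro ⟨h1, h2⟩
        have h1' : y ∈ centralizer (N : Set Q) := by
          have h4 := hCn.conj_mem _ h1 x⁻¹
          have h5 : x⁻¹ * (x * y * x⁻¹) * x⁻¹⁻¹ = y := by group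
          rwa [h5] at h4
        have h3 : x * y * x⁻¹ = y := by
          rw [(mem_centralizer_iff.1 h1' x hx)]; group
        rw [h3] at h2
        exact ⟨h1', h2⟩
    · intro x hx
      rw [Subgroup.mem_normalizer_iff]
      intro y
      constructor
      · rintro ⟨h1, h2⟩
        exact ⟨hCn.conj_mem _ h1 x, M.mul_mem (M.mul_mem hx h2) (M.inv_mem hx)⟩
      · rintro ⟨h1, h2⟩
        have h3 : x⁻¹ * (x * y * x⁻¹) * x⁻¹⁻¹ = y := by group
        have h4 : x⁻¹ * (x * y * x⁻¹) * x = y := by group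
        refine ⟨?_, ?_⟩
        · rw [← h3]; exact hCn.conj_mem _ h1 _
        · rw [← h4]; exact M.mul_mem (M.mul_mem (M.inv_mem hx) h2) hx
  have hCN : centralizer (N : Set Q) ≤ N := by
    intro c hc
    have hct : c ∈ (N ⊔ M : Subgroup Q) := by rw [hsup]; exact mem_top c
    rw [← SetLike.mem_coe, Subgroup.normal_mul] at hct
    obtain ⟨a, ha, b, hb, hab'⟩ := Set.mem_mul.1 hct
    have haC : a ∈ centralizer (N : Set Q) := by
      rw [mem_centralizer_iff]
      intro y hy
      exact hcc y hy a ha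
    have hbC : b ∈ centralizer (N : Set Q) ⊓ M := by
      refine ⟨?_, hb⟩
      have : b = a⁻¹ * c := by rw [← hab']; group
      rw [this]; exact (centralizer (N : Set Q)).mul_mem ((centralizer (N : Set Q)).inv_mem haC) hc
    rw [hCM, mem_bot] at hbC
    rw [← hab', hbC, mul_one]; exact ha
  -- the action of `P` on `N`
  letI : MulAction P N := MulAction.compHom N ((MulAut.conjNormal (H := N)).comp P.subtype)
  have hact : ∀ (g : P) (x : N), ((g • x : N) : Q) = (g : Q) * x * (g : Q)⁻¹ := fun g x => rfl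
  have hmod := hP.card_modEq_card_fixedPoints N
  have hF : Nat.card (MulAction.fixedPoints P N) = Nat.card (N ⊓ centralizer (P : Set Q) : Subgroup Q) := by
    refine Nat.card_congr ⟨fun x => ⟨((x : N) : Q), (x : N).2, ?_⟩, fun x => ⟨⟨x, x.2.1⟩, ?_⟩, fun x => rfl, fun x => rfl⟩
    · change ((x : N) : Q) ∈ centralizer (P : Set Q)
      rw [mem_centralizer_iff]
      intro g hg
      have h1 := x.2 ⟨g, hg⟩
      have h2 := congrArg (fun w : N => (w : Q)) h1
      rw [hact] at h2
      exact mul_inv_eq_iff_eq_mul.1 h2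
    · intro g
      apply Subtype.ext
      rw [hact]
      have := mem_centralizer_iff.1 x.2.2 g g.2
      rw [mul_inv_eq_iff_eq_mul]
      exact this
  rw [hF, hn] at hmod
  obtain ⟨c, hc⟩ := IsPGroup.iff_card.mp (hrN.to_le (inf_le_left : N ⊓ centralizer (P : Set Q) ≤ N))
  rw [hc] at hmod
  have hcn : c ≤ n := by
    have h1 := Subgroup.card_dvd_of_le (inf_le_left : N ⊓ centralizer (P : Set Q) ≤ N)
    rw [hc, hn] at h1
    exact (Nat.pow_dvd_pow_iff_le_right hr.one_lt).1 h1
  rcases eq_or_lt_of_le hcn with h | h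
  · right
    have h1 : N ⊓ centralizer (P : Set Q) = N := by
      apply Subgroup.eq_of_le_of_card_ge inf_le_left
      rw [hc, hn, h]
    have h2 : N ≤ centralizer (P : Set Q) := inf_eq_left.1 h1
    have h3 : P ≤ N := by
      refine le_trans ?_ hCN
      intro g hg
      rw [mem_centralizer_iff]
      intro y hy
      exact (mem_centralizer_iff.1 (h2 hy) g hg).symm
    have h4 : IsPGroup r P := hrN.to_le h3
    have h5 := IsPGroup.disjoint_of_ne r p hrp P P h4 hP
    exact disjoint_self.1 h5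
  · left
    refine ⟨r ^ (n - c), hr.isPrimePow.pow (by omega), ?_, Or.inr (Or.inr ?_)⟩
    · rw [h6]; exact pow_dvd_pow r (Nat.sub_le n c)
    · have h1 : r ^ c * r ^ (n - c) ≡ r ^ c * 1 [MOD p] := by
        rw [← pow_add, mul_one, Nat.add_sub_cancel' hcn]; exact hmod
      have h2 : Nat.gcd p (r ^ c) = 1 :=
        Nat.Coprime.pow_right c ((Nat.coprime_primes hp hr).2 (fun h => hrp h.symm))
      have h3 := Nat.ModEq.cancel_left_of_coprime h2 h1
      have h4 := (Int.natCast_modEq_iff).2 h3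
      simpa using h4

theorem imp {G : Type*} [Group G] [Finite G] (hsol : Group.IsSolvable G) {p : ℕ} (hp : p.Prime) (P : Sylow p G)
    (T : Subgroup G) (hT : T ≠ ⊤) :
    (∃ q : ℕ, IsPrimePow q ∧ q ∣ T.index ∧
      ((q : ℤ) ≡ -1 [ZMOD p] ∨ (q : ℤ) ≡ 0 [ZMOD p] ∨ (q : ℤ) ≡ 1 [ZMOD p])) ∨
    ∃ L : Subgroup G, L.Normal ∧ L ≠ ⊤ ∧ (P : Subgroup G) ≤ L := by
  obtain ⟨M, hM, hTM⟩ := (eq_top_or_exists_le_coatom T).resolve_left hT
  haveI := hsol
  set K := M.normalCore with hKdef
  have hKM : K ≤ M := Subgroup.normalCore_le M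
  have hπ : Function.Surjective (QuotientGroup.mk' K) := QuotientGroup.mk'_surjective K
  have hcm : (M.map (QuotientGroup.mk' K)).comap (QuotientGroup.mk' K) = M := by
    rw [Subgroup.comap_map_eq, QuotientGroup.ker_mk', sup_eq_left.mpr hKM]
  have hidx : (M.map (QuotientGroup.mk' K)).index = M.index := by
    conv_rhs => rw [← hcm]
    rw [Subgroup.index_comap_of_surjective _ hπ]
  have hM'top : M.map (QuotientGroup.mk' K) ≠ ⊤ := by
    intro h
    apply hM.1
    rw [← hcm, h, Subgroup.comap_top]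
  have hmax : ∀ X : Subgroup (G ⧸ K), M.map (QuotientGroup.mk' K) < X → X = ⊤ := by
    intro X hX
    have h1 : M < X.comap (QuotientGroup.mk' K) := by
      refine lt_of_le_of_ne ?_ ?_
      · rw [← Subgroup.map_le_iff_le_comap]; exact hX.le
      · intro h
        apply hX.ne
        apply Subgroup.comap_injective hπ
        rw [hcm]; exact h
    have h2 := hM.2 _ h1
    apply Subgroup.comap_injective hπ
    rw [h2, Subgroup.comap_top]
  have hcore : ∀ X : Subgroup (G ⧸ K), X.Normal → X ≤ M.map (QuotientGroup.mk' K) → X = ⊥ := by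
    intro X hX hXM
    have h1 : X.comap (QuotientGroup.mk' K) ≤ M := (Subgroup.comap_mono hXM).trans hcm.le
    haveI := hX.comap (QuotientGroup.mk' K)
    have h2 : X.comap (QuotientGroup.mk' K) ≤ K := Subgroup.normal_le_normalCore.mpr h1
    rw [eq_bot_iff]
    intro x hx
    obtain ⟨g, rfl⟩ := hπ x
    have h3 : g ∈ K := h2 hx
    rw [Subgroup.mem_bot]
    exact (QuotientGroup.eq_one_iff g).2 h3
  rcases prim (hsol := inferInstance) hM'top hmax hcore hp ((P : Subgroup G).map (QuotientGroup.mk' K))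
    (P.isPGroup'.map _) with ⟨q, h1, h2, h3⟩ | h
  · left
    refine ⟨q, h1, h2.trans ?_, h3⟩
    rw [hidx]
    exact Subgroup.index_dvd_of_le hTM
  · right
    refine ⟨K, inferInstance, fun h' => hM.1 (top_le_iff.1 (h' ▸ hKM)), ?_⟩
    rw [Subgroup.map_eq_bot_iff, QuotientGroup.ker_mk'] at h
    exact h

end Cfsg.Agent.H22W
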